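import Cfsg.Agent.Lib.D1.CountK
import Cfsg.Agent.Lib.D1.Over2
import Cfsg.Agent.Lib.D1.Simple
import Cfsg.Agent.Lib.ExcP.Dual
import Cfsg.Agent.Lib.CharZeros.Gallagher

/-!
# The number of conjugacy classes of the normalizer of a subgroup of prime order

With `C = C_G(P)`, `N = N_G(P)`, `|P| = p`, `p ^ 2 ∤ |G|`:
`|N : C| * k(N) = ∑_{θ} (e_θ ^ 2 + p - 1)`, the sum over irreducible characters `θ` of `C` trivial on `P`.
-/

set_option autoImplicit false
set_option linter.style.haveILetI false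

namespace Cfsg.Agent.Lib.D1.CountN

open Cfsg
open Cfsg.Agent.Lib.Char.Basic Cfsg.Agent.Lib.Char.Ortho Cfsg.Agent.Lib.Char.Complete
open Cfsg.Agent.Lib.Char.Conj Cfsg.Agent.Lib.Char.CliffordCorr Cfsg.Agent.Lib.Char.Linear
open Cfsg.Agent.Lib.ExcP.Gram Cfsg.Agent.Lib.ExcP.Dual
open Cfsg.Agent.Lib.D1.Over2 Cfsg.Agent.Lib.D1.CountK

universe u

variable {G : Type u} [Group G] {P : Subgroup G}

/-- The stabilizer of a function on the centralizer in the normalizer. -/
def Tt (P : Subgroup G) (φ : Cn P → ℂ) : Subgroup G where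
  carrier := {g | g ∈ Nn P ∧ ∀ c c' : Cn P, (c' : G) = g * c * g⁻¹ → φ c' = φ c}
  one_mem' := ⟨(Nn P).one_mem, fun c c' h => by
    have : c' = c := Subtype.ext (by simpa using h)
    rw [this]⟩
  mul_mem' := by
    rintro a b ⟨ha, ha'⟩ ⟨hb, hb'⟩
    refine ⟨(Nn P).mul_mem ha hb, fun c c' h => ?_⟩
    have hc : b * c * b⁻¹ ∈ Cn P := by
      have := conj_mem_centralizer P ((Nn P).inv_mem hb) c.2
      simpa using this
    have h1 := hb' c ⟨_, hc⟩ rfl
    have h2 := ha' ⟨_, hc⟩ c' (by rw [h]; simp [mul_assoc])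
    rw [h2, h1]
  inv_mem' := by
    rintro a ⟨ha, ha'⟩
    refine ⟨(Nn P).inv_mem ha, fun c c' h => ?_⟩
    have := ha' c' c (by rw [h]; group)
    exact this.symm

theorem mem_Tt {φ : Cn P → ℂ} {g : G} :
    g ∈ Tt P φ ↔ (g ∈ Nn P ∧ ∀ c c' : Cn P, (c' : G) = g * c * g⁻¹ → φ c' = φ c) := Iff.rfl

/-- The index of the centralizer in the stabilizer. -/
noncomputable def ee (P : Subgroup G) (φ : Cn P → ℂ) : ℕ := (Cn P).relIndex (Tt P φ)

/-- The linear characters of the centralizer of exponent `p`. -/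
abbrev DDp (P : Subgroup G) (p : ℕ) : Type u := {κ : Cn P →* ℂˣ // ∀ x, κ x ^ p = 1}

/-- Irreducible characters trivial on `P`. -/
abbrev Triv (P : Subgroup G) : Type u :=
  {θ : IrrCharacter (Cn P) // ∀ c : Cn P, (c : G) ∈ P → (θ : Cn P → ℂ) c = (θ : Cn P → ℂ) 1}

variable [Finite G]

/-- The correspondence of irreducible characters of the two copies of the centralizer. -/
noncomputable def tildeEquiv (P : Subgroup G) : IrrCharacter (Cn P) ≃ IrrCharacter (Ct P) where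
  toFun φ := ⟨tilde (φ : Cn P → ℂ), isIrr_tilde φ.2⟩
  invFun ψ := ⟨(ψ : Ct P → ℂ) ∘ (ctEquiv P).symm, isIrrCharacter_comp_mulEquiv _ ψ.2⟩
  left_inv φ := by
    apply Subtype.ext
    funext c
    simp [tilde]
  right_inv ψ := by
    apply Subtype.ext
    funext c
    simp [tilde]

variable {p : ℕ} [hp : Fact p.Prime]

theorem eI_tilde [Fintype (Nn P)] [Fintype (Ct P)] (φ : Cn P → ℂ) :
    eI (Ct_normal P) (tilde φ) = ee P φ := by
  have hI := inertia_eq (θ := φ) (T := Tt P φ) (fun g => Iff.rfl)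
  rw [eI, hI, ee]
  have hTN : Tt P φ ≤ Nn P := fun g hg => hg.1
  exact Subgroup.relIndex_subgroupOf hTN

/-- The sum over the irreducible characters of the centralizer. -/
theorem count_irr [Fintype (IrrCharacter (Cn P))] (hP : Nat.card P = p) :
    (Cn P).relIndex (Nn P) * Nat.card (IrrCharacter (Nn P)) =
      ∑ φ : IrrCharacter (Cn P), ee P (φ : Cn P → ℂ) ^ 2 := by
  classical
  letI : Fintype (Nn P) := Fintype.ofFinite _
  letI : Fintype (Ct P) := Fintype.ofFinite _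
  haveI := finite_irrCharacter (G := Nn P)
  haveI := finite_irrCharacter (G := Ct P)
  letI := Fintype.ofFinite (IrrCharacter (Nn P))
  letI := Fintype.ofFinite (IrrCharacter (Ct P))
  have hcyc : ∀ ϑ : IrrCharacter (Ct P), IsCyclic (inertia (Ct_normal P) (ϑ : Ct P → ℂ) ⧸
      (Ct P).subgroupOf (inertia (Ct_normal P) (ϑ : Ct P → ℂ))) := fun ϑ => by
    haveI : ((Ct P).subgroupOf (inertia (Ct_normal P) (ϑ : Ct P → ℂ))).Normal := (Ct_normal P).subgroupOf _
    exact isCyclic_quot hP _ _ rfl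
  have h1 := index_mul_card (Ct_normal P) hcyc
  have h2 : (Ct P).index = (Cn P).relIndex (Nn P) := rfl
  rw [h2] at h1
  rw [h1, ← Equiv.sum_comp (tildeEquiv P)]
  refine Finset.sum_congr rfl fun φ _ => ?_
  congr 1
  exact eI_tilde _

theorem finite_DDp (hP : Nat.card P = p) (hp2 : ¬ p ^ 2 ∣ Nat.card G) : Finite (DDp P p) := by
  have := finite_hom hP
  refine Finite.of_injective (fun κ : DDp P p => res P hP κ.1) ?_
  intro a b hab
  apply Subtype.ext
  have h1 : a.1 * b.1⁻¹ = 1 := by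
    apply eq_one_of_trivial_on hP hp2
    · intro x
      rw [MonoidHom.mul_apply, mul_pow, MonoidHom.inv_apply, inv_pow, a.2, b.2]
      simp
    · intro x hx
      have h3 := congrArg (fun Y : P →* ℂˣ => Y ⟨x, hx⟩) hab
      have h4 : a.1 x = b.1 x := h3
      rw [MonoidHom.mul_apply, MonoidHom.inv_apply, h4, mul_inv_cancel]
  exact mul_inv_eq_one.mp h1

theorem card_DDp (hP : Nat.card P = p) (hp2 : ¬ p ^ 2 ∣ Nat.card G) : Nat.card (DDp P p) = p := by
  have h0 : Function.Bijective (fun κ : DDp P p => res P hP κ.1) := by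
    constructor
    · intro a b hab
      apply Subtype.ext
      have h1 : a.1 * b.1⁻¹ = 1 := by
        apply eq_one_of_trivial_on hP hp2
        · intro x
          rw [MonoidHom.mul_apply, mul_pow, MonoidHom.inv_apply, inv_pow, a.2, b.2]
          simp
        · intro x hx
          have h3 := congrArg (fun Y : P →* ℂˣ => Y ⟨x, hx⟩) hab
          have h4 : a.1 x = b.1 x := h3
          rw [MonoidHom.mul_apply, MonoidHom.inv_apply, h4, mul_inv_cancel]
      exact mul_inv_eq_one.mp h1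
    · intro Y
      obtain ⟨κ, h1, h2⟩ := exists_extension hP hp2 Y
      exact ⟨⟨κ, h1⟩, h2⟩
  rw [Nat.card_congr (Equiv.ofBijective _ h0), card_hom hP]

/-- The product of a linear character and a character trivial on `P`. -/
noncomputable def Ψ (a : Triv P × DDp P p) : IrrCharacter (Cn P) :=
  ⟨fun c => ((a.2.1 c : ℂˣ) : ℂ) * (a.1.1 : Cn P → ℂ) c, by
    letI : Fintype (Cn P) := Fintype.ofFinite _
    exact Cfsg.Agent.Lib.CharZeros.Gallagher.isIrrCharacter_mul_linear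
      (isCharacter_of_isIrrCharacter (isIrrCharacter_of_hom a.2.1)) (by simp) a.1.1.2⟩

@[simp] theorem Ψ_apply (a : Triv P × DDp P p) (c : Cn P) :
    (Ψ a : Cn P → ℂ) c = ((a.2.1 c : ℂˣ) : ℂ) * (a.1.1 : Cn P → ℂ) c := rfl

theorem Ψ_injective (hP : Nat.card P = p) (hp2 : ¬ p ^ 2 ∣ Nat.card G) :
    Function.Injective (Ψ (P := P) (p := p)) := by
  rintro ⟨θ, κ⟩ ⟨θ', κ'⟩ h
  have hval : ∀ c, ((κ.1 c : ℂˣ) : ℂ) * (θ.1 : Cn P → ℂ) c = ((κ'.1 c : ℂˣ) : ℂ) * (θ'.1 : Cn P → ℂ) c := by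
    intro c
    have := congrFun (congrArg Subtype.val h) c
    simpa using this
  have hone : (θ.1 : Cn P → ℂ) 1 = (θ'.1 : Cn P → ℂ) 1 := by
    have := hval 1
    simpa using this
  have hθ0 : (θ.1 : Cn P → ℂ) 1 ≠ 0 := irr_one_ne_zero θ.1.2
  have hκ : κ.1 = κ'.1 := by
    have h1 : κ.1 * κ'.1⁻¹ = 1 := by
      apply eq_one_of_trivial_on hP hp2
      · intro x
        rw [MonoidHom.mul_apply, mul_pow, MonoidHom.inv_apply, inv_pow, κ.2, κ'.2]
        simp
      · intro x hx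
        have h2 := hval x
        rw [θ.2 x hx, θ'.2 x hx, ← hone] at h2
        have h3 : ((κ.1 x : ℂˣ) : ℂ) = ((κ'.1 x : ℂˣ) : ℂ) := mul_right_cancel₀ hθ0 h2
        have h4 : κ.1 x = κ'.1 x := Units.ext h3
        rw [MonoidHom.mul_apply, MonoidHom.inv_apply, h4, mul_inv_cancel]
    exact mul_inv_eq_one.mp h1
  have hθ : θ = θ' := by
    apply Subtype.ext
    apply Subtype.ext
    funext c
    have h2 := hval c
    rw [← hκ] at h2
    exact mul_left_cancel₀ (Units.ne_zero _) h2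
  have hκ' : κ = κ' := Subtype.ext hκ
  rw [hθ, hκ']

theorem Ψ_surjective (hP : Nat.card P = p) (hp2 : ¬ p ^ 2 ∣ Nat.card G) :
    Function.Surjective (Ψ (P := P) (p := p)) := by
  classical
  rintro ⟨φ, n, ρ, hρ, rfl⟩
  -- Schur
  have hsc : ∀ x : P, ∃ c : ℂ, ρ ⟨x, le_centralizer hP x.2⟩ = c • 1 := by
    intro x
    haveI := hρ
    refine Cfsg.Agent.Lib.D1.Simple.exists_scalar_of_commute ρ _ fun g => ?_
    rw [← map_mul, ← map_mul]
    congr 1
    apply Subtype.ext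
    exact (g.2 x x.2).symm
  set φ : Cn P → ℂ := ρ.character with hφ
  have hφ1 : φ 1 ≠ 0 := irr_one_ne_zero ⟨n, ρ, hρ, rfl⟩
  have hchar : ∀ (x : P) (c : ℂ), ρ ⟨x, le_centralizer hP x.2⟩ = c • 1 → ∀ y : Cn P,
      φ (⟨x, le_centralizer hP x.2⟩ * y) = c * φ y := by
    intro x c hc y
    simp only [hφ, Representation.character, map_mul, hc]
    rw [smul_mul_assoc, one_mul, map_smul, smul_eq_mul]
  -- the linear character on `P`
  let f : P →* ℂ :=
    { toFun := fun x => φ ⟨x, le_centralizer hP x.2⟩ / φ 1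
      map_one' := by
        have : (⟨((1 : P) : G), le_centralizer hP (1 : P).2⟩ : Cn P) = 1 := rfl
        rw [this, div_self hφ1]
      map_mul' := by
        intro a b
        obtain ⟨c, hc⟩ := hsc a
        obtain ⟨d, hd⟩ := hsc b
        have h1 : (⟨((a * b : P) : G), le_centralizer hP (a * b).2⟩ : Cn P) =
            ⟨a, le_centralizer hP a.2⟩ * ⟨b, le_centralizer hP b.2⟩ := rfl
        rw [h1, hchar a c hc]
        have h2 := hchar a c hc 1
        rw [mul_one] at h2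
        rw [h2]
        field_simp }
  obtain ⟨κ, hκ1, hκ2⟩ := exists_extension hP hp2 f.toHomUnits
  have hκP : ∀ x : P, ((κ ⟨x, le_centralizer hP x.2⟩ : ℂˣ) : ℂ) = φ ⟨x, le_centralizer hP x.2⟩ / φ 1 := by
    intro x
    have h1 := congrArg (fun Y : P →* ℂˣ => ((Y x : ℂˣ) : ℂ)) hκ2
    exact h1
  -- the character trivial on `P`
  let θ : IrrCharacter (Cn P) := ⟨fun c => ((κ⁻¹ c : ℂˣ) : ℂ) * φ c, by
    letI : Fintype (Cn P) := Fintype.ofFinite _
    exact Cfsg.Agent.Lib.CharZeros.Gallagher.isIrrCharacter_mul_linear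
      (isCharacter_of_isIrrCharacter (isIrrCharacter_of_hom κ⁻¹)) (by simp) ⟨n, ρ, hρ, rfl⟩⟩
  have hθP : ∀ c : Cn P, (c : G) ∈ P → (θ : Cn P → ℂ) c = (θ : Cn P → ℂ) 1 := by
    intro c hc
    have h1 := hκP ⟨c, hc⟩
    have h2 : (⟨((⟨c, hc⟩ : P) : G), le_centralizer hP (⟨c, hc⟩ : P).2⟩ : Cn P) = c := rfl
    rw [h2] at h1
    have h3 : (κ c : ℂ) ≠ 0 := Units.ne_zero _
    change ((κ⁻¹ c : ℂˣ) : ℂ) * φ c = ((κ⁻¹ 1 : ℂˣ) : ℂ) * φ 1
    rw [map_one, Units.val_one, one_mul, MonoidHom.inv_apply, Units.val_inv_eq_inv_val, h1]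
    rw [h1] at h3
    have h4 : φ c ≠ 0 := by
      intro h5
      rw [h5, zero_div] at h3
      exact h3 rfl
    field_simp
  refine ⟨(⟨θ, hθP⟩, ⟨κ, hκ1⟩), ?_⟩
  apply Subtype.ext
  funext c
  change ((κ c : ℂˣ) : ℂ) * (((κ⁻¹ c : ℂˣ) : ℂ) * φ c) = φ c
  rw [MonoidHom.inv_apply, Units.val_inv_eq_inv_val, ← mul_assoc, mul_inv_cancel₀ (Units.ne_zero _), one_mul]

/-- The stabilizer of `κ θ`, `κ ≠ 1`, is the centralizer. -/
theorem ee_Ψ (hP : Nat.card P = p) (hp2 : ¬ p ^ 2 ∣ Nat.card G) (a : Triv P × DDp P p) (ha : a.2.1 ≠ 1) :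
    ee P (Ψ a : Cn P → ℂ) = 1 := by
  have h1 : Tt P (Ψ a : Cn P → ℂ) = Cn P := by
    apply le_antisymm
    · rintro g ⟨hgN, hg⟩
      rw [Subgroup.mem_centralizer_iff]
      intro x hx
      have hg2 : g * x * g⁻¹ ∈ P := (Subgroup.mem_set_normalizer_iff.mp hgN x).mp hx
      have h2 := hg ⟨x, le_centralizer hP hx⟩ ⟨g * x * g⁻¹, le_centralizer hP hg2⟩ rfl
      simp only [Ψ_apply] at h2
      rw [a.1.2 ⟨x, le_centralizer hP hx⟩ hx, a.1.2 ⟨g * x * g⁻¹, le_centralizer hP hg2⟩ hg2] at h2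
      have h3 := mul_right_cancel₀ (irr_one_ne_zero a.1.1.2) h2
      have h4 := inj_on hP hp2 a.2.2 ha (a := ⟨g * x * g⁻¹, le_centralizer hP hg2⟩)
        (b := ⟨x, le_centralizer hP hx⟩) hg2 hx (Units.ext h3)
      have h5 : g * x * g⁻¹ = x := congrArg Subtype.val h4
      have h6 : g * x = x * g := by
        calc g * x = g * x * g⁻¹ * g := by group
          _ = x * g := by rw [h5]
      exact h6.symm
    · intro g hg
      refine ⟨Cn_le_Nn P hg, fun c c' hc' => ?_⟩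
      have h2 : c' = ⟨g, hg⟩ * c * ⟨g, hg⟩⁻¹ := Subtype.ext (by simpa using hc')
      rw [h2]
      exact isClassFunction_of_isIrrCharacter (Ψ a).2 _ _
  rw [ee, h1]
  exact Subgroup.relIndex_self _

theorem Ψ_one (θ : Triv P) (h1 : ∀ x : Cn P, ((1 : Cn P →* ℂˣ) x) ^ p = 1) :
    Ψ (θ, ⟨1, h1⟩) = θ.1 := by
  apply Subtype.ext
  funext c
  simp

/-- **The sum formula for the normalizer.** -/
theorem count_normalizer [Fintype (Triv P)] (hP : Nat.card P = p) (hp2 : ¬ p ^ 2 ∣ Nat.card G) :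
    (Cn P).relIndex (Nn P) * Nat.card (ConjClasses (Nn P)) =
      ∑ θ : Triv P, (ee P ((θ.1 : IrrCharacter (Cn P)) : Cn P → ℂ) ^ 2 + (p - 1)) := by
  classical
  haveI := finite_irrCharacter (G := Cn P)
  letI := Fintype.ofFinite (IrrCharacter (Cn P))
  haveI := finite_DDp (p := p) (P := P) hP hp2
  letI := Fintype.ofFinite (DDp P p)
  rw [← card_irr_eq_card_conjClasses, count_irr hP]
  have hbij : Function.Bijective (Ψ (P := P) (p := p)) := ⟨Ψ_injective hP hp2, Ψ_surjective hP hp2⟩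
  rw [← Function.Bijective.sum_comp hbij, Fintype.sum_prod_type]
  refine Finset.sum_congr rfl fun θ _ => ?_
  have h1 : ∀ x : Cn P, ((1 : Cn P →* ℂˣ) x) ^ p = 1 := fun x => by simp
  rw [← Finset.add_sum_erase Finset.univ _ (Finset.mem_univ (⟨1, h1⟩ : DDp P p)), Ψ_one]
  congr 1
  rw [Finset.sum_congr rfl (g := fun _ => 1)]
  · rw [Finset.sum_const, smul_eq_mul, mul_one, Finset.card_erase_of_mem (Finset.mem_univ _),
      Finset.card_univ, ← Nat.card_eq_fintype_card, card_DDp hP hp2]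
  · intro κ hκ
    rw [ee_Ψ hP hp2, one_pow]
    intro h2
    apply (Finset.mem_erase.mp hκ).1
    exact Subtype.ext h2

end Cfsg.Agent.Lib.D1.CountN
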