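import Cfsg.Agent.Lib.D1.Over

/-!
# The number of irreducible characters of a group with a cyclic quotient

If `A` is normal in `G` and each inertia quotient is cyclic, then
`|G : A| * k(G) = ∑_{ϑ ∈ Irr A} |I(ϑ) : A| ^ 2`.
-/

set_option autoImplicit false

namespace Cfsg.Agent.Lib.D1.CountK

open Cfsg
open Cfsg.Agent.Lib.Char.Basic Cfsg.Agent.Lib.Char.Ortho Cfsg.Agent.Lib.Char.Complete
open Cfsg.Agent.Lib.Char.Induced Cfsg.Agent.Lib.Char.Conj
open Cfsg.Agent.Lib.Char.Clifford Cfsg.Agent.Lib.Char.CliffordCorr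
open Cfsg.Agent.Lib.D1.Over

universe u

variable {G : Type u} [Group G] [Fintype G] {A : Subgroup G} [Fintype A] (hA : A.Normal)

/-- The inertia index. -/
noncomputable def eI (ϑ : A → ℂ) : ℕ := A.relIndex (inertia hA ϑ)

theorem orbitFinset_conjOn [DecidableEq (A → ℂ)] (g : G) (ϑ : A → ℂ) :
    orbitFinset hA (conjOn hA g ϑ) = orbitFinset hA ϑ := by
  ext ψ
  rw [mem_orbitFinset, mem_orbitFinset]
  constructor
  · rintro ⟨h, rfl⟩
    exact ⟨g * h, conjOn_mul hA g h ϑ⟩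
  · rintro ⟨h, rfl⟩
    refine ⟨g⁻¹ * h, ?_⟩
    rw [conjOn_mul, conjOn_inv_conjOn] 

theorem eI_mul_card_orbit [DecidableEq (A → ℂ)] {ϑ : A → ℂ} (hϑ : IsClassFunction A ϑ) :
    eI hA ϑ * (orbitFinset hA ϑ).card = A.index := by
  rw [card_orbit_eq_index, eI]
  exact Subgroup.relIndex_mul_index (le_inertia hA hϑ)

theorem eI_conjOn {ϑ : A → ℂ} (hϑ : IsClassFunction A ϑ) (g : G) :
    eI hA (conjOn hA g ϑ) = eI hA ϑ := by
  classical
  have h1 := eI_mul_card_orbit hA hϑ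
  have h2 := eI_mul_card_orbit hA (isClassFunction_conjOn hA g hϑ)
  rw [orbitFinset_conjOn] at h2
  have h3 : 0 < (orbitFinset hA ϑ).card := by
    rw [Finset.card_pos]
    exact ⟨conjOn hA 1 ϑ, (mem_orbitFinset hA ϑ _).mpr ⟨1, rfl⟩⟩
  exact Nat.eq_of_mul_eq_mul_right h3 (h2.trans h1.symm)

/-- The sum of the inertia indices of the constituents of the restriction of an irreducible character. -/
theorem sum_over_eq [Fintype (IrrCharacter A)] [DecidableEq (A → ℂ)] {β : G → ℂ} (hβ : IsIrrCharacter G β)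
    [DecidablePred fun ϑ : IrrCharacter A => classInner (fun n : A => β n) (ϑ : A → ℂ) ≠ 0] :
    ∑ ϑ ∈ Finset.univ.filter (fun ϑ : IrrCharacter A => classInner (fun n : A => β n) (ϑ : A → ℂ) ≠ 0),
      eI hA (ϑ : A → ℂ) = A.index := by
  classical
  -- a constituent
  have hres : IsClassFunction A (fun n : A => β n) :=
    isClassFunction_of_isCharacter (isCharacter_restrict A (isCharacter_of_isIrrCharacter hβ))
  have hne : (fun n : A => β n) ≠ 0 := by
    intro h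
    have h1 := congrFun h 1
    have h2 : β 1 ≠ 0 := irr_one_ne_zero hβ
    apply h2
    simpa using h1
  obtain ⟨ϑ₀, hϑ₀, hcon⟩ := exists_irr_constituent hres hne
  have hcl : IsClassFunction A ϑ₀ := isClassFunction_of_isIrrCharacter hϑ₀
  -- the constituents are the orbit
  have hmem : ∀ ϑ : IrrCharacter A, classInner (fun n : A => β n) (ϑ : A → ℂ) ≠ 0 ↔
      (ϑ : A → ℂ) ∈ orbitFinset hA ϑ₀ := by
    intro ϑ
    rw [mem_orbitFinset]
    constructor
    · intro h
      by_contra h2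
      push Not at h2
      exact h (classInner_restrict_eq_zero_of_not_conj hA hβ hϑ₀ ϑ.2 hcon h2)
    · rintro ⟨g, hg⟩
      rw [← hg, classInner_restrict_conjOn hA (isClassFunction_of_isIrrCharacter hβ)]
      exact hcon
  have hconst : ∀ ϑ : IrrCharacter A, ϑ ∈ (Finset.univ.filter fun ϑ : IrrCharacter A =>
      classInner (fun n : A => β n) (ϑ : A → ℂ) ≠ 0) → eI hA (ϑ : A → ℂ) = eI hA ϑ₀ := by
    intro ϑ hϑ
    have h1 := (hmem ϑ).mp (Finset.mem_filter.mp hϑ).2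
    obtain ⟨g, hg⟩ := (mem_orbitFinset hA ϑ₀ _).mp h1
    rw [← hg]
    exact eI_conjOn hA hcl g
  rw [Finset.sum_congr rfl hconst, Finset.sum_const, smul_eq_mul, mul_comm, ← eI_mul_card_orbit hA hcl]
  congr 1
  -- the bijection
  refine Finset.card_bij (fun ϑ _ => (ϑ : A → ℂ)) ?_ ?_ ?_
  · intro ϑ hϑ
    exact (hmem ϑ).mp (Finset.mem_filter.mp hϑ).2
  · intro a _ b _ h
    exact Subtype.ext h
  · intro ψ hψ
    obtain ⟨g, rfl⟩ := (mem_orbitFinset hA ϑ₀ _).mp hψ
    let ϑ : IrrCharacter A := ⟨conjOn hA g ϑ₀, isIrrCharacter_conjOn hA g hϑ₀⟩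
    refine ⟨ϑ, ?_, rfl⟩
    exact Finset.mem_filter.mpr ⟨Finset.mem_univ _, (hmem ϑ).mpr hψ⟩

/-- **Counting irreducible characters.** -/
theorem index_mul_card [Fintype (IrrCharacter A)] [Fintype (IrrCharacter G)]
    (hcyc : ∀ ϑ : IrrCharacter A,
      IsCyclic (inertia hA (ϑ : A → ℂ) ⧸ A.subgroupOf (inertia hA (ϑ : A → ℂ)))) :
    A.index * Nat.card (IrrCharacter G) = ∑ ϑ : IrrCharacter A, eI hA (ϑ : A → ℂ) ^ 2 := by
  classical
  have h1 : ∀ ϑ : IrrCharacter A, eI hA (ϑ : A → ℂ) ^ 2 =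
      ∑ β ∈ Finset.univ.filter (fun β : IrrCharacter G => classInner (fun n : A => (β : G → ℂ) n) (ϑ : A → ℂ) ≠ 0),
        eI hA (ϑ : A → ℂ) := by
    intro ϑ
    rw [Finset.sum_const, smul_eq_mul, pow_two]
    congr 1
    have h2 := card_over hA ϑ.2 (hcyc ϑ)
    rw [eI, ← h2, Nat.card_eq_fintype_card, Fintype.card_subtype]
  simp only [h1]
  simp only [Finset.sum_filter]
  rw [Finset.sum_comm]
  have h3 : ∀ β : IrrCharacter G, ∑ ϑ : IrrCharacter A,
      (if classInner (fun n : A => (β : G → ℂ) n) (ϑ : A → ℂ) ≠ 0 then eI hA (ϑ : A → ℂ) else 0) = A.index := by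
    intro β
    rw [← Finset.sum_filter]
    exact sum_over_eq hA β.2
  simp only [h3]
  rw [Finset.sum_const, Finset.card_univ, smul_eq_mul, mul_comm, Nat.card_eq_fintype_card]

end Cfsg.Agent.Lib.D1.CountK
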