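import Cfsg.Agent.Lib.D1.CountN
import Cfsg.Agent.Lib.D1.Count
import Cfsg.Agent.Lib.ModRep.BlockTh
import Cfsg.Agent.Lib.BlockH.Basic
import Cfsg.Agent.Lib.Blocks.Rank1

/-!
# The McKay equality when the order is divisible by `p` exactly once
-/

set_option autoImplicit false
set_option linter.style.haveILetI false

namespace Cfsg.Agent.Lib.D1.McKay

open Cfsg
open Cfsg.Agent.Lib.Char.Basic Cfsg.Agent.Lib.Char.Ortho Cfsg.Agent.Lib.Char.Complete
open Cfsg.Agent.Lib.Char.Conj Cfsg.Agent.Lib.Char.CliffordCorr Cfsg.Agent.Lib.Char.Clifford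
open Cfsg.Agent.Lib.ExcP.Gram Cfsg.Agent.Lib.ExcP.Inst
open Cfsg.Agent.Lib.ModRep.ThGram Cfsg.Agent.Lib.ModRep.BlockTh Cfsg.Agent.Lib.ModRep.Numerics2
open Cfsg.Agent.Lib.D1.Over2 Cfsg.Agent.Lib.D1.CountK Cfsg.Agent.Lib.D1.CountN

universe u

variable {G : Type u} [Group G] [Finite G] {P : Subgroup G}

theorem tilde_cjI (y : Nn P) (θ : IrrCharacter (Cn P)) :
    tilde ((cjI y θ : IrrCharacter (Cn P)) : Cn P → ℂ) = conjOn (Ct_normal P) y⁻¹ (tilde (θ : Cn P → ℂ)) := by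
  funext c
  simp only [tilde, Function.comp_apply, cjI_apply, conjOn_apply]
  refine congrArg (θ : Cn P → ℂ) ?_
  apply Subtype.ext
  simp [coe_ctEquiv]

theorem ee_cjI (y : Nn P) (θ : IrrCharacter (Cn P)) :
    ee P ((cjI y θ : IrrCharacter (Cn P)) : Cn P → ℂ) = ee P (θ : Cn P → ℂ) := by
  classical
  letI : Fintype G := Fintype.ofFinite G
  letI : Fintype (Nn P) := Fintype.ofFinite _
  letI : Fintype (Ct P) := Fintype.ofFinite _
  rw [← eI_tilde, ← eI_tilde, tilde_cjI]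
  exact eI_conjOn (Ct_normal P) (isClassFunction_of_isIrrCharacter (isIrr_tilde θ.2)) _

/-- Orbit-stabilizer for the action of `N` on `Irr C`. -/
theorem ee_mul_card_orbit [Fintype (IrrCharacter (Cn P))] (θ₀ : IrrCharacter (Cn P))
    [DecidablePred fun θ : IrrCharacter (Cn P) => ∃ y : Nn P, cjI y θ₀ = θ] :
    ee P (θ₀ : Cn P → ℂ) * (Finset.univ.filter (fun θ : IrrCharacter (Cn P) => ∃ y : Nn P, cjI y θ₀ = θ)).card =
      (Cn P).relIndex (Nn P) := by
  classical
  letI : Fintype G := Fintype.ofFinite G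
  letI : Fintype (Nn P) := Fintype.ofFinite _
  letI : Fintype (Ct P) := Fintype.ofFinite _
  have h1 := eI_mul_card_orbit (Ct_normal P) (isClassFunction_of_isIrrCharacter (isIrr_tilde θ₀.2))
  rw [eI_tilde] at h1
  have h2 : (Ct P).index = (Cn P).relIndex (Nn P) := rfl
  rw [← h2, ← h1]
  congr 1
  refine Finset.card_bij (fun θ _ => tilde (θ : Cn P → ℂ)) ?_ ?_ ?_
  · intro θ hθ
    obtain ⟨y, rfl⟩ := (Finset.mem_filter.mp hθ).2
    rw [mem_orbitFinset, tilde_cjI]
    exact ⟨_, rfl⟩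
  · intro a _ b _ h
    have h3 := congrArg (tildeEquiv P).symm (Subtype.ext h : tildeEquiv P a = tildeEquiv P b)
    simpa using h3
  · intro ψ hψ
    obtain ⟨g, rfl⟩ := (mem_orbitFinset _ _ _).mp hψ
    refine ⟨cjI g⁻¹ θ₀, Finset.mem_filter.mpr ⟨Finset.mem_univ _, _, rfl⟩, ?_⟩
    rw [tilde_cjI, inv_inv]

/-- Non-vanishing of the defect of a block of a character of degree prime to `p`. -/
theorem blockDefect_pos {p : ℕ} [hp : Fact p.Prime] {M : Ideal AlgInt} (hM : IsPModular p M)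
    (hdiv : p ∣ Nat.card G) {χ : IrrCharacter G} (hχ : ¬ p ∣ charDegree (χ : G → ℂ)) :
    0 < blockDefect p (blockOf M (χ : G → ℂ)) := by
  classical
  letI : Fintype G := Fintype.ofFinite G
  haveI := finite_irrCharacter (G := G)
  letI := Fintype.ofFinite (IrrCharacter G)
  haveI := Cfsg.Agent.Lib.Blocks.Local.isPrime_of_pModular hM
  by_contra h
  have h0 : blockDefect p (blockOf M (χ : G → ℂ)) = 0 := by omega
  have h1 := Cfsg.Agent.Lib.Blocks.Rank1.eq_singleton_of_blockDefect_eq_zero hM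
    ⟨χ, rfl⟩ (Cfsg.Agent.Lib.Blocks.Central.mem_blockOf_self χ) h0
  have h2 := (Cfsg.Agent.Lib.Blocks.Inducing.blockOf_eq_singleton_iff hM χ).mpr h1
  apply h2
  obtain ⟨n, hn⟩ := Cfsg.Agent.Lib.Char.Degree.charDegree_dvd_card χ.2
  have hdpos := Cfsg.Agent.Lib.Char.Degree.charDegree_pos χ.2
  rw [hn, Nat.mul_div_cancel_left _ hdpos]
  rw [hn] at hdiv
  exact (hp.out.dvd_mul.mp hdiv).resolve_left hχ

/-- **The McKay equality.** -/
theorem mckay {p : ℕ} [hp : Fact p.Prime] (hdiv : p ∣ Nat.card G) (hsq : ¬ p ^ 2 ∣ Nat.card G)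
    (hP : Nat.card P = p) :
    Nat.card {χ : IrrCharacter G // ¬ p ∣ charDegree (χ : G → ℂ)} = Nat.card (ConjClasses (Nn P)) := by
  classical
  letI : Fintype G := Fintype.ofFinite G
  obtain ⟨M, hM⟩ := Cfsg.Agent.Lib.BlockH.Basic.exists_isPModular hp.out
  haveI := Cfsg.Agent.Lib.Blocks.Local.isPrime_of_pModular hM
  haveI := finite_irrCharacter (G := G)
  letI := Fintype.ofFinite (IrrCharacter G)
  letI : Fintype (Cn P) := Fintype.ofFinite _
  letI : Fintype (Nn P) := Fintype.ofFinite _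
  haveI := finite_irrCharacter (G := Cn P)
  letI := Fintype.ofFinite (IrrCharacter (Cn P))
  letI : Fintype (Triv P) := Fintype.ofFinite _
  haveI := finite_DD (p := p) (P := P) hP hsq
  letI : Fintype (DD P p) := Fintype.ofFinite _
  -- the induced blocks
  have hex : ∀ θ : Triv P, ∃ B : Set (IrrCharacter G),
      IsInducedBlock M (Cn P) (blockOf M ((θ.1 : IrrCharacter (Cn P)) : Cn P → ℂ)) B := fun θ =>
    Cfsg.Agent.Lib.Blocks.Induced.exists_induced hM (isBrauerPair_Cn hP)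
      ⟨θ.1, rfl⟩
  choose B hB using hex
  -- the size of the block
  have hsize : ∀ θ : Triv P, ee P ((θ.1 : IrrCharacter (Cn P)) : Cn P → ℂ) ^ 2 + (p - 1) =
      ee P ((θ.1 : IrrCharacter (Cn P)) : Cn P → ℂ) * (Finset.univ.filter (fun χ : IrrCharacter G => χ ∈ B θ)).card := by
    intro θ
    obtain ⟨X, Y, εX, ε, ν, hB', hdisj, hXcard, hYcard, -, -, -, -, -, -, -⟩ :=
      structure_T (P := P) hM hP hsq θ.1 θ.2 (hB θ) (T := Tt P ((θ.1 : IrrCharacter (Cn P)) : Cn P → ℂ))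
        (fun g => Iff.rfl) (e := ee P ((θ.1 : IrrCharacter (Cn P)) : Cn P → ℂ)) rfl rfl
        (fun S hS => Cfsg.Agent.Lib.D1.Count.card_le hM hP hsq θ.1 θ.2 (hB θ) _ (fun g => Iff.rfl) _ rfl S hS)
    have h1 : Finset.univ.filter (fun χ : IrrCharacter G => χ ∈ B θ) = X ∪ Y := by
      ext j
      simp [hB' j]
    rw [h1, Finset.card_union_of_disjoint hdisj, hXcard, mul_add, ← hYcard, pow_two, mul_comm _ Y.card]
  -- the fibres
  have hfibre : ∀ χ : IrrCharacter G, ¬ p ∣ charDegree (χ : G → ℂ) →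
      ∑ θ : Triv P, (if χ ∈ B θ then ee P ((θ.1 : IrrCharacter (Cn P)) : Cn P → ℂ) else 0) =
        (Cn P).relIndex (Nn P) := by
    intro χ hχ
    obtain ⟨θ₀, hθ₀P, hind₀⟩ := exists_theta hM hP hsq ⟨χ, rfl⟩
      (blockDefect_pos hM hdiv hχ)
    have hiff : ∀ θ : Triv P, χ ∈ B θ ↔ ∃ y : Nn P, cjI y θ₀ = θ.1 := by
      intro θ
      constructor
      · intro h
        have h2 : B θ = blockOf M (χ : G → ℂ) :=
          Cfsg.Agent.Lib.Blocks.Central.isPBlock_eq_blockOf (hB θ).2.1 h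
        have h3 := hB θ
        rw [h2] at h3
        exact exists_cjI_eq hM hP hsq hθ₀P θ.2 hind₀ h3
      · rintro ⟨y, hy⟩
        have h3 := isInduced_cjI hM y θ₀ hind₀
        rw [hy] at h3
        have h4 := Cfsg.Agent.Lib.Blocks.Induced.IsInducedBlock.unique _ (hB θ) h3
        rw [h4]
        exact Cfsg.Agent.Lib.Blocks.Central.mem_blockOf_self χ
    have hsub : ∀ θ : Triv P, (if χ ∈ B θ then ee P ((θ.1 : IrrCharacter (Cn P)) : Cn P → ℂ) else 0) =
        if ∃ y : Nn P, cjI y θ₀ = θ.1 then ee P (θ₀ : Cn P → ℂ) else 0 := by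
      intro θ
      by_cases h : ∃ y : Nn P, cjI y θ₀ = θ.1
      · rw [if_pos h, if_pos ((hiff θ).mpr h)]
        obtain ⟨y, hy⟩ := h
        rw [← hy, ee_cjI]
      · rw [if_neg h, if_neg (fun h' => h ((hiff θ).mp h'))]
    rw [Finset.sum_congr rfl fun θ _ => hsub θ, Finset.sum_ite, Finset.sum_const_zero, add_zero, Finset.sum_const,
      smul_eq_mul, mul_comm, ← ee_mul_card_orbit θ₀]
    congr 1
    refine Finset.card_bij (fun θ _ => θ.1) ?_ ?_ ?_
    · intro θ hθ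
      exact Finset.mem_filter.mpr ⟨Finset.mem_univ _, (Finset.mem_filter.mp hθ).2⟩
    · intro a _ b _ h
      exact Subtype.ext h
    · intro θ hθ
      have h5 := (Finset.mem_filter.mp hθ).2
      obtain ⟨y, rfl⟩ := h5
      refine ⟨⟨cjI y θ₀, fun x hx => ?_⟩, ?_, rfl⟩
      · exact cjt_ker hθ₀P y x hx
      · exact Finset.mem_filter.mpr ⟨Finset.mem_univ _, y, rfl⟩
  -- double counting
  have hsum : (Cn P).relIndex (Nn P) * Nat.card {χ : IrrCharacter G // ¬ p ∣ charDegree (χ : G → ℂ)} =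
      ∑ θ : Triv P, (ee P ((θ.1 : IrrCharacter (Cn P)) : Cn P → ℂ) ^ 2 + (p - 1)) := by
    simp only [hsize]
    have h1 : ∀ θ : Triv P, ee P ((θ.1 : IrrCharacter (Cn P)) : Cn P → ℂ) *
        (Finset.univ.filter (fun χ : IrrCharacter G => χ ∈ B θ)).card =
        ∑ χ : IrrCharacter G, (if χ ∈ B θ then ee P ((θ.1 : IrrCharacter (Cn P)) : Cn P → ℂ) else 0) := by
      intro θ
      rw [← Finset.sum_filter, Finset.sum_const, smul_eq_mul, mul_comm]
    simp only [h1]
    rw [Finset.sum_comm]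
    have h2 : ∀ χ : IrrCharacter G, ∑ θ : Triv P,
        (if χ ∈ B θ then ee P ((θ.1 : IrrCharacter (Cn P)) : Cn P → ℂ) else 0) =
        if ¬ p ∣ charDegree (χ : G → ℂ) then (Cn P).relIndex (Nn P) else 0 := by
      intro χ
      by_cases h : ¬ p ∣ charDegree (χ : G → ℂ)
      · rw [if_pos h, hfibre χ h]
      · rw [if_neg h]
        apply Finset.sum_eq_zero
        intro θ _
        rw [if_neg]
        intro h'
        exact h (Cfsg.Agent.Lib.ModRep.ThDeg.not_dvd_degree_of_mem hM hP hsq θ.1 θ.2 (hB θ) h')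
    simp only [h2]
    rw [← Finset.sum_filter, Finset.sum_const, smul_eq_mul, mul_comm, Nat.card_eq_fintype_card,
      Fintype.card_subtype]
  have h3 := count_normalizer (p := p) (P := P) hP hsq
  rw [← hsum] at h3
  have hf : 0 < (Cn P).relIndex (Nn P) := Nat.pos_of_ne_zero (Subgroup.index_ne_zero_of_finite (H := (Cn P).subgroupOf (Nn P)))
  exact (Nat.eq_of_mul_eq_mul_left hf h3).symm

end Cfsg.Agent.Lib.D1.McKay
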