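import Cfsg.Agent.Lib.D1.PowAct2

/-!
# The abstract form of the exceptional family theorem
-/

set_option autoImplicit false

namespace Cfsg.Agent.Lib.D1.PowAct3

open Cfsg
open Cfsg.Agent.Lib.Char.Ortho Cfsg.Agent.Lib.ModRep.Numerics2 Cfsg.Agent.Lib.ModRep.Inner
open Cfsg.Agent.Lib.OddChar.GaloisConj Cfsg.Agent.Lib.D1.PowAct Cfsg.Agent.Lib.D1.PowAct2
open scoped ComplexConjugate

universe u v

variable {G : Type u} [Group G] [Fintype G] {p : ℕ} {D : Type v} [Nonempty D]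

/-- The exceptional family theorem, from the structure theorem and the power action. -/
theorem final (hp : p.Prime) {r : Setoid D} {Θ : D → G → ℂ} {e : ℕ} {B : Set (IrrCharacter G)} {w : ℤ}
    (hdiv : p ∣ Nat.card G) (hsq : ¬ p ^ 2 ∣ Nat.card G)
    (hC : Concl r Θ e p B w)
    (hreg : ∀ d y, ¬ p ∣ orderOf y → Θ d y = 0)
    (hcount : ∀ S : Finset (IrrCharacter G), (∀ χ, χ ∈ B → ∃ (c : IrrCharacter G → ℤ) (m : ℤ),
      ¬ (p : ℤ) ∣ m ∧ ∀ g, ¬ p ∣ orderOf g → (m : ℂ) * (χ : G → ℂ) g = ∑ ψ ∈ S, (c ψ : ℂ) * (ψ : G → ℂ) g) →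
      e ≤ S.card)
    (hτ : ∀ k : ℕ, k.Coprime (Nat.card G) → k ≡ 1 [MOD pp G p] →
      ∃ τ : D → D, Function.Surjective τ ∧ ∀ d g, Θ (τ d) g = Θ d (g ^ k))
    (htrans : ∀ d d' : D, ∃ k : ℕ, k.Coprime (Nat.card G) ∧ k ≡ 1 [MOD pp G p] ∧
      ∃ τ : D → D, Function.Surjective τ ∧ (∀ d g, Θ (τ d) g = Θ d (g ^ k)) ∧ τ d = d') :
    ∃ Y : Set (Cfsg.IrrCharacter G), Y ⊆ B ∧ Y.Nonempty ∧
      (∀ θ ∈ Y, ∀ ψ : Cfsg.IrrCharacter G, (∃ σ : ℂ ≃+* ℂ, σ (Zt G p) = Zt G p ∧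
        (ψ : G → ℂ) = fun g => σ ((θ : G → ℂ) g)) ↔ ψ ∈ Y) ∧
      (∀ χ ∈ B, χ ∉ Y → ∀ ψ : Cfsg.IrrCharacter G, (∃ σ : ℂ ≃+* ℂ, σ (Zt G p) = Zt G p ∧
        (ψ : G → ℂ) = fun g => σ ((χ : G → ℂ) g)) → ψ = χ) ∧
      Nat.card Y ∣ p - 1 ∧ Nat.card B = Nat.card Y + (p - 1) / Nat.card Y ∧
      ∃ δ : Cfsg.IrrCharacter G → ℤ, (∀ χ ∈ B, δ χ = 1 ∨ δ χ = -1) ∧
        ∀ x : G, ¬ p ∣ orderOf x → ∀ θ ∈ Y,
          (∑ᶠ χ ∈ B \ Y, (δ χ : ℂ) * (χ : G → ℂ) x) + (δ θ : ℂ) * (θ : G → ℂ) x = 0 := by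
  classical
  obtain ⟨X, Y, εX, ε, ν, hBX, hdisj, hXc, hYc, hεX, hε, hν, hνY, hform, hdX, hdY⟩ := hC
  have hp2 := hp.two_le
  have hY0 : 0 < Y.card := by
    rcases Nat.eq_zero_or_pos Y.card with h | h
    · rw [h, zero_mul] at hYc
      omega
    · exact h
  have hgood : ∀ (k : ℕ) (hk : k.Coprime (Nat.card G)), k ≡ 1 [MOD pp G p] → ∀ τ : D → D,
      Function.Surjective τ → (∀ d g, Θ (τ d) g = Θ d (g ^ k)) →
      (∀ χ ∈ X, tw hk χ = χ) ∧ ∀ d, tw hk (ν d) = ν (τ d) := by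
    intro k hk hk1 τ hτs hΘ
    by_cases hp2' : p = 2
    · subst hp2'
      have h1 : ∀ χ : IrrCharacter G, tw hk χ = χ := by
        intro χ
        apply Subtype.ext
        funext g
        rw [tw_apply, pow_eq_of_two hdiv hsq hk hk1 g]
      refine ⟨fun χ _ => h1 χ, fun d => ?_⟩
      rw [h1]
      have h2 : Y.card = 1 := by
        have h3 : Y.card * e = 1 := hYc
        exact Nat.eq_one_of_mul_eq_one_right h3
      obtain ⟨a, ha⟩ := Finset.card_eq_one.mp h2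
      have h3 : ∀ d, ν d = a := by
        intro d
        have h4 : ν d ∈ Y := (hνY _).mpr ⟨d, rfl⟩
        rw [ha] at h4
        exact Finset.mem_singleton.mp h4
      rw [h3, h3]
    · have hfix : ∀ χ ∈ X, tw hk χ = χ := fun χ hχ =>
        fixed_X hp2' hp hBX hdisj hXc hYc hεX hε hνY hform hreg hcount hk
          (fun g hg => pow_eq_of_regular hp hdiv hsq hk1 g hg) hτs hΘ hχ
      exact ⟨hfix, fun d => map_ν hk hε hform hΘ hfix d⟩
  have hνXne : ∀ d, ν d ∉ X := fun d hd =>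
    Finset.disjoint_left.mp hdisj hd ((hνY _).mpr ⟨d, rfl⟩)
  have hBY : B \ (Y : Set (IrrCharacter G)) = (X : Set (IrrCharacter G)) := by
    ext j
    simp only [Set.mem_diff, Finset.mem_coe, hBX, Finset.mem_union]
    constructor
    · rintro ⟨h | h, h2⟩
      · exact h
      · exact absurd h h2
    · intro h
      exact ⟨Or.inl h, Finset.disjoint_left.mp hdisj h⟩
  have hBe : B = ((X ∪ Y : Finset (IrrCharacter G)) : Set (IrrCharacter G)) := by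
    ext j
    simp only [hBX, Finset.mem_coe]
  have hdiv' : p - 1 = Y.card * e := hYc.symm
  have heq : (p - 1) / Y.card = e := by
    rw [hdiv', Nat.mul_div_cancel_left _ hY0]
  refine ⟨(Y : Set (IrrCharacter G)), ?_, ?_, ?_, ?_, ?_, ?_, ?_⟩
  · intro j hj
    exact (hBX j).mpr (Finset.mem_union_right _ hj)
  · obtain ⟨a⟩ : Nonempty D := inferInstance
    exact ⟨ν a, (hνY _).mpr ⟨a, rfl⟩⟩
  · intro θ hθ ψ
    have hθY : θ ∈ Y := hθ
    obtain ⟨d, rfl⟩ := (hνY θ).mp hθY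
    constructor
    · rintro ⟨σ, hσ, rfl'⟩
      obtain ⟨k, hk, hk1, hkσ⟩ := good_of_ringEquiv hp hdiv hsq σ hσ
      obtain ⟨τ, hτs, hΘ⟩ := hτ k hk hk1
      have h1 := (hgood k hk hk1 τ hτs hΘ).2 d
      have h2 : ψ = tw hk (ν d) := by
        apply Subtype.ext
        rw [rfl']
        funext g
        rw [tw_apply, hkσ _ (Cfsg.Agent.Lib.Char.Basic.isCharacter_of_isIrrCharacter (ν d).2) g]
      rw [h2, h1]
      exact (hνY _).mpr ⟨τ d, rfl⟩
    · intro hψ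
      have hψY : ψ ∈ Y := hψ
      obtain ⟨d', rfl⟩ := (hνY ψ).mp hψY
      obtain ⟨k, hk, hk1, τ, hτs, hΘ, hd⟩ := htrans d d'
      have h1 := (hgood k hk hk1 τ hτs hΘ).2 d
      rw [hd] at h1
      obtain ⟨σ, hσ, hσk⟩ := ringEquiv_of_good hp hdiv hsq hk hk1
      refine ⟨σ, hσ, ?_⟩
      funext g
      rw [hσk _ (Cfsg.Agent.Lib.Char.Basic.isCharacter_of_isIrrCharacter (ν d).2) g, ← h1, tw_apply]
  · rintro χ hχ hχY ψ ⟨σ, hσ, hψ⟩
    have hχX : χ ∈ X := by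
      rcases Finset.mem_union.mp ((hBX χ).mp hχ) with h | h
      · exact h
      · exact absurd h hχY
    obtain ⟨k, hk, hk1, hkσ⟩ := good_of_ringEquiv hp hdiv hsq σ hσ
    obtain ⟨τ, hτs, hΘ⟩ := hτ k hk hk1
    have h1 := (hgood k hk hk1 τ hτs hΘ).1 χ hχX
    rw [← h1]
    apply Subtype.ext
    rw [hψ]
    funext g
    rw [tw_apply, hkσ _ (Cfsg.Agent.Lib.Char.Basic.isCharacter_of_isIrrCharacter χ.2) g]
  · rw [Nat.card_coe_set_eq, Set.ncard_coe_finset]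
    exact ⟨e, hdiv'⟩
  · rw [Nat.card_coe_set_eq (Y : Set (IrrCharacter G)), Set.ncard_coe_finset, heq, hBe,
      Nat.card_coe_set_eq, Set.ncard_coe_finset, Finset.card_union_of_disjoint hdisj, hXc, add_comm]
  · refine ⟨fun χ => if χ ∈ X then - εX χ else ε, fun χ hχ => ?_, fun x hx θ hθ => ?_⟩
    · beta_reduce
      by_cases h : χ ∈ X
      · rw [if_pos h]
        rcases hεX χ h with h1 | h1
        · right
          rw [h1]
        · left
          rw [h1]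
          norm_num
      · rw [if_neg h]
        exact hε
    · have hθY : θ ∈ Y := hθ
      obtain ⟨d, rfl⟩ := (hνY θ).mp hθY
      rw [hBY, finsum_mem_coe_finset]
      beta_reduce
      have h1 := hform d x
      rw [hreg d x hx] at h1
      rw [if_neg (hνXne d)]
      have h2 : ∑ χ ∈ X, (((if χ ∈ X then - εX χ else ε : ℤ)) : ℂ) * (χ : G → ℂ) x =
          - ∑ χ ∈ X, (εX χ : ℂ) * (χ : G → ℂ) x := by
        rw [← Finset.sum_neg_distrib]
        refine Finset.sum_congr rfl fun χ hχ => ?_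
        rw [if_pos hχ]
        push_cast
        ring
      rw [h2]
      exact h1.symm

end Cfsg.Agent.Lib.D1.PowAct3
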