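import Cfsg.Agent.Lib.D1.PowAct3
import Cfsg.Agent.Lib.ExcP.Inst

/-!
# Powers and the family `Ind_C^G ((κ - 1) θ)`
-/

set_option autoImplicit false

namespace Cfsg.Agent.Lib.D1.PowTh

open Cfsg
open Cfsg.Agent.Lib.Char.Induced Cfsg.Agent.Lib.Char.Basic
open Cfsg.Agent.Lib.ExcP.Gram Cfsg.Agent.Lib.ExcP.Inst Cfsg.Agent.Lib.D1.PowAct2

universe u

variable {G : Type u} [Group G]

theorem mem_of_pow_mem [Finite G] (H : Subgroup G) {k : ℕ} (hk : k.Coprime (Nat.card G)) {y : G}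
    (hy : y ^ k ∈ H) : y ∈ H := by
  have h1 := (powCoprime hk.symm).symm_apply_apply y
  rw [← h1]
  exact H.zpow_mem hy _

/-- Induced functions and powers. -/
theorem indFun_pow [Fintype G] (H : Subgroup G) (f : H → ℂ) {k : ℕ} (hk : k.Coprime (Nat.card G)) (g : G) :
    indFun H f (g ^ k) = indFun H (fun c => f (c ^ k)) g := by
  simp only [indFun]
  congr 1
  refine Finset.sum_congr rfl fun x _ => ?_
  have h1 : x⁻¹ * g ^ k * x = (x⁻¹ * g * x) ^ k := by
    have := conj_pow (a := x⁻¹) (b := g) (i := k)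
    simpa using this.symm
  rw [h1]
  by_cases hy : x⁻¹ * g * x ∈ H
  · rw [extendByZero_of_mem H _ hy, extendByZero_of_mem H _ (H.pow_mem hy k)]
    rfl
  · rw [extendByZero_of_not_mem H _ hy, extendByZero_of_not_mem H _ (fun h => hy (mem_of_pow_mem H hk h))]

variable {P : Subgroup G}

/-- The family. -/
noncomputable def TT [Fintype G] (P : Subgroup G) (θ : Cn P → ℂ) (κ : Cn P →* ℂˣ) : G → ℂ :=
  indFun (Cn P) (fun c => (((κ c : ℂˣ) : ℂ) - 1) * θ c)

theorem TT_pow [Fintype G] (θ : Cn P → ℂ) (κ : Cn P →* ℂˣ) {k : ℕ} (hk : k.Coprime (Nat.card G))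
    (hθ : ∀ c, θ (c ^ k) = θ c) (g : G) : TT P θ κ (g ^ k) = TT P θ (κ ^ k) g := by
  rw [TT, indFun_pow _ _ hk, TT]
  congr 1
  funext c
  rw [hθ c, map_pow, MonoidHom.pow_apply, Units.val_pow_eq_pow_val]

variable [Finite G] {p : ℕ} [hp : Fact p.Prime]

/-- A character trivial on `P` is fixed by good powers. -/
theorem theta_pow (hP : Nat.card P = p) (hdiv : p ∣ Nat.card G) (hsq : ¬ p ^ 2 ∣ Nat.card G)
    {θ : Cn P → ℂ} (hθ : IsCharacter (Cn P) θ) (hθP : ∀ c : Cn P, (c : G) ∈ P → θ c = θ 1)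
    {k : ℕ} (hk : k.Coprime (Nat.card G)) (hk1 : k ≡ 1 [MOD pp G p]) (c : Cn P) : θ (c ^ k) = θ c := by
  obtain ⟨n, ρ, rfl⟩ := hθ
  have hk0 : 1 ≤ k := k_pos hp.out hdiv hk
  obtain ⟨a, ha⟩ := (Nat.modEq_iff_dvd' hk0).mp hk1.symm
  have h1 : k = 1 + pp G p * a := by omega
  set x : Cn P := (c ^ pp G p) ^ a with hx
  have hcx : c ^ k = c * x := by
    rw [h1, pow_add, pow_one, pow_mul]
  have hxP : (x : G) ∈ P := by
    have hx1 : (x : G) ^ p = 1 := by
      have h2 : x ^ p = 1 := by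
        have h3 := (card_eq_mul hp.out hdiv hsq).1
        have h4 : (c : G) ^ Nat.card G = 1 := pow_card_eq_one'
        have h5 : c ^ (p * pp G p) = 1 := by
          apply Subtype.ext
          rw [← h3]
          simpa using h4
        rw [hx, ← pow_mul, ← pow_mul]
        have h6 : pp G p * (a * p) = (p * pp G p) * a := by ring
        rw [h6, pow_mul, h5, one_pow]
      simpa using congrArg Subtype.val h2
    by_cases hx2 : (x : G) = 1
    · rw [hx2]
      exact P.one_mem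
    · exact mem_of_orderOf_eq hP hsq x.2 (orderOf_eq_prime hx1 hx2)
  have hρ : ρ x = LinearMap.id := by
    apply (Cfsg.Agent.Lib.Char.Eigen.character_eq_finrank_iff ρ x).mp
    have h2 := hθP x hxP
    rw [h2]
    have h3 : ρ.character (1 : Cn P) = (Module.finrank ℂ (Fin n → ℂ) : ℂ) := by
      simp [Representation.character]
    exact h3
  rw [hcx]
  simp only [Representation.character, map_mul, hρ]
  rfl

/-- Powers on the set `D`. -/
def powD {k : ℕ} (hk : k.Coprime p) (d : DD P p) : DD P p :=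
  ⟨d.1 ^ k, fun x => by rw [MonoidHom.pow_apply, ← pow_mul, mul_comm, pow_mul, d.2.1, one_pow], fun h => by
    apply d.2.2
    ext x
    have h1 : (d.1 x) ^ k = 1 := by
      rw [← MonoidHom.pow_apply, h]
      rfl
    have h2 := eq_one_of_pow_eq_one hp.out ((Nat.Prime.coprime_iff_not_dvd hp.out).mp hk.symm) (d.2.1 x) h1
    rw [h2]
    rfl⟩

theorem powD_surjective {k : ℕ} (hk : k.Coprime p) : Function.Surjective (powD (P := P) hk) := by
  intro d
  have hp1 := hp.out.one_lt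
  obtain ⟨m, -, hm⟩ := Nat.exists_mul_mod_eq_one_of_coprime hk hp1
  have hmc : m.Coprime p := by
    have h1 : Nat.gcd m p ∣ 1 := by
      have h2 : Nat.gcd m p ∣ k * m := Dvd.dvd.mul_left (Nat.gcd_dvd_left m p) k
      have h3 : Nat.gcd m p ∣ k * m % p := (Nat.dvd_mod_iff (Nat.gcd_dvd_right m p)).mpr h2
      rwa [hm] at h3
    exact Nat.dvd_one.mp h1
  refine ⟨powD hmc d, ?_⟩
  apply Subtype.ext
  ext x
  simp only [powD]
  rw [MonoidHom.pow_apply, MonoidHom.pow_apply, ← pow_mul]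
  have h1 : m * k = k * m % p + p * (k * m / p) := by
    rw [Nat.mod_add_div, mul_comm]
  rw [h1, pow_add, pow_mul, d.2.1, one_pow, mul_one, hm, pow_one]

/-- The transitivity of powers on `D`. -/
theorem exists_good_pow (hP : Nat.card P = p) (hdiv : p ∣ Nat.card G) (hsq : ¬ p ^ 2 ∣ Nat.card G)
    (d d' : DD P p) : ∃ k : ℕ, k.Coprime (Nat.card G) ∧ k ≡ 1 [MOD pp G p] ∧ d.1 ^ k = d'.1 := by
  obtain ⟨hc, hpp⟩ := card_eq_mul hp.out hdiv hsq
  -- a generator
  obtain ⟨x, hxP, hx1⟩ : ∃ x ∈ P, x ≠ 1 := by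
    have h1 : P ≠ ⊥ := by
      rintro rfl
      rw [Subgroup.card_bot] at hP
      exact hp.out.one_lt.ne hP
    obtain ⟨x, hx⟩ := Subgroup.ne_bot_iff_exists_ne_one.mp h1
    exact ⟨x.1, x.2, fun h => hx (Subtype.ext h)⟩
  have hPx : P = Subgroup.zpowers x := eq_zpowers_of_mem hP hxP hx1
  set X : Cn P := ⟨x, le_centralizer hP hxP⟩ with hX
  have hXne : X ≠ 1 := fun h => hx1 (congrArg Subtype.val h)
  -- the values at the generator
  have hξ : d.1 X ≠ 1 := by
    intro h
    have h2 := inj_on hP hsq d.2.1 d.2.2 (a := X) (b := 1) hxP P.one_mem (by rw [h, map_one])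
    exact hXne h2
  have hξ' : d'.1 X ≠ 1 := by
    intro h
    have h2 := inj_on hP hsq d'.2.1 d'.2.2 (a := X) (b := 1) hxP P.one_mem (by rw [h, map_one])
    exact hXne h2
  have hord : orderOf (d.1 X) = p := orderOf_eq_prime (d.2.1 X) hξ
  have hprimU : IsPrimitiveRoot (d.1 X) p := by
    have h0 := IsPrimitiveRoot.orderOf (d.1 X)
    rwa [hord] at h0
  have hprim : IsPrimitiveRoot ((d.1 X : ℂˣ) : ℂ) p :=
    hprimU.map_of_injective (f := Units.coeHom ℂ) Units.val_injective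
  have hroot : ((d'.1 X : ℂˣ) : ℂ) ^ p = 1 := by
    rw [← Units.val_pow_eq_pow_val, d'.2.1]
    rfl
  obtain ⟨a, -, ha0⟩ := hprim.eq_pow_of_pow_eq_one hroot
  have ha : d.1 X ^ a = d'.1 X := Units.ext (by simpa using ha0)
  have hap : ¬ p ∣ a := by
    rintro ⟨b, rfl⟩
    apply hξ'
    rw [← ha, pow_mul, d.2.1, one_pow]
  have hcop : Nat.Coprime p (pp G p) := (Nat.Prime.coprime_iff_not_dvd hp.out).mpr hpp
  obtain ⟨k, hk1, hk2⟩ := Nat.chineseRemainder hcop a 1
  have hkp : k.Coprime p := by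
    have h1 : Nat.gcd k p = Nat.gcd a p := Nat.ModEq.gcd_eq hk1
    rw [Nat.Coprime, h1]
    exact ((Nat.Prime.coprime_iff_not_dvd hp.out).mpr hap).symm
  have hkq : k.Coprime (pp G p) := by
    have h1 : Nat.gcd k (pp G p) = Nat.gcd 1 (pp G p) := Nat.ModEq.gcd_eq hk2
    rw [Nat.Coprime, h1]
    simp
  refine ⟨k, ?_, hk2, ?_⟩
  · rw [hc]
    exact Nat.Coprime.mul_right hkp hkq
  · -- compare on the generator
    have h1 : d.1 ^ k * (d'.1)⁻¹ = 1 := by
      apply eq_one_of_trivial_on hP hsq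
      · intro c
        rw [MonoidHom.mul_apply, mul_pow, MonoidHom.pow_apply, MonoidHom.inv_apply, inv_pow, d'.2.1,
          ← pow_mul, mul_comm k p, pow_mul, d.2.1]
        simp
      · intro c hcP
        have hcP' : (c : G) ∈ Subgroup.zpowers x := hPx ▸ hcP
        obtain ⟨j, hj⟩ := Subgroup.mem_zpowers_iff.mp hcP'
        have h2 : c = X ^ j := by
          apply Subtype.ext
          simp [← hj, hX]
        rw [h2, map_zpow, MonoidHom.mul_apply, MonoidHom.pow_apply, MonoidHom.inv_apply]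
        have h3 : d.1 X ^ k = d'.1 X := by
          rw [← ha]
          apply pow_eq_pow_iff_modEq.mpr
          rw [hord]
          exact hk1
        rw [h3, mul_inv_cancel, one_zpow]
    exact mul_inv_eq_one.mp h1

end Cfsg.Agent.Lib.D1.PowTh
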